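import Cfsg.Agent.H14.Omega8.Coxeter
import Cfsg.Prelude.Def_KGroupFacts

/-!
# The multiplier of `Ω₈⁺(2)` has order at most four

In a stem extension the edges of `E₈` have canonical lifts of order three; the products of two commuting
reflections then have a common square `b` with `b² = 1`.
-/

set_option autoImplicit false

namespace Cfsg.Agent.H14.Omega8

open scoped commutatorElement

section pieces

variable {Δ : Type*} [Group Δ]

/-- A commutator with an inverting element has order three. -/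
theorem cube_of_inverter {a E : Δ} (h3 : a ^ 3 ∈ Subgroup.center Δ) (hz : E * a * E⁻¹ * a ∈ Subgroup.center Δ) :
    ⁅E, a⁆ ^ 3 = 1 ∧ E * ⁅E, a⁆ * E⁻¹ = ⁅E, a⁆⁻¹ := by
  set z := E * a * E⁻¹ * a with hzdef
  have hc : ∀ w, Commute z w := fun w => (Subgroup.mem_center_iff.mp hz w).symm
  have hE : E * a * E⁻¹ = z * a⁻¹ := by rw [hzdef]; group
  have hx : ⁅E, a⁆ = z * (a ^ 2)⁻¹ := by
    rw [commutatorElement_def, hE, pow_two, mul_inv_rev]; group
  have hEx : E * ⁅E, a⁆ * E⁻¹ = ⁅E, a⁆⁻¹ := by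
    rw [hx]
    calc E * (z * (a ^ 2)⁻¹) * E⁻¹ = (E * z) * (a ^ 2)⁻¹ * E⁻¹ := by group
      _ = z * E * (a ^ 2)⁻¹ * E⁻¹ := by rw [(hc E).eq]
      _ = z * ((E * a * E⁻¹) * (E * a * E⁻¹))⁻¹ := by rw [pow_two]; group
      _ = z * ((z * a⁻¹) * (z * a⁻¹))⁻¹ := by rw [hE]
      _ = z * (z * z * (a⁻¹ * a⁻¹))⁻¹ := by
        rw [(hc a⁻¹).mul_mul_mul_comm z]
      _ = z * ((a⁻¹ * a⁻¹)⁻¹ * (z * z)⁻¹) := by rw [mul_inv_rev]
      _ = (z * (a * a)) * z⁻¹ * z⁻¹ := by simp only [mul_inv_rev, inv_inv, mul_assoc]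
      _ = (a * a * z) * z⁻¹ * z⁻¹ := by rw [(hc (a * a)).eq]
      _ = (z * (a ^ 2)⁻¹)⁻¹ := by simp [pow_two, mul_assoc]
  refine ⟨?_, hEx⟩
  have e1 : (E * a * E⁻¹) ^ 3 = a ^ 3 := by
    rw [conj_pow, Subgroup.mem_center_iff.mp h3 E, mul_inv_cancel_right]
  rw [hE, (hc a⁻¹).mul_pow, inv_pow] at e1
  have e2 : z ^ 3 = a ^ 3 * a ^ 3 := mul_inv_eq_iff_eq_mul.mp e1
  rw [hx, (hc _).mul_pow, inv_pow, e2, ← pow_mul, ← pow_add, mul_inv_cancel]

/-- `E` inverts `x`. -/
def Inverts (E x : Δ) : Prop := E * x * E⁻¹ = x⁻¹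

theorem Inverts.inv {E x : Δ} (h : Inverts E x) : Inverts E⁻¹ x := by
  have e : x = E * x⁻¹ * E⁻¹ := by rw [← conj_inv, h, inv_inv]
  show E⁻¹ * x * E⁻¹⁻¹ = x⁻¹
  conv_lhs => rw [e]
  group

theorem Inverts.inv_arg {E x : Δ} (h : Inverts E x) : Inverts E x⁻¹ := by
  show E * x⁻¹ * E⁻¹ = x⁻¹⁻¹
  rw [← conj_inv, h]

theorem Inverts.mul_left_self {E x : Δ} (h : Inverts E x) : Inverts (x * E) x := by
  show x * E * x * (x * E)⁻¹ = x⁻¹
  calc x * E * x * (x * E)⁻¹ = x * (E * x * E⁻¹) * x⁻¹ := by group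
    _ = x⁻¹ := by rw [h]; group

theorem Inverts.mul_central {E x z : Δ} (h : Inverts E x) (hz : z ∈ Subgroup.center Δ) : Inverts (E * z) x := by
  show E * z * x * (E * z)⁻¹ = x⁻¹
  calc E * z * x * (E * z)⁻¹ = E * (z * x) * z⁻¹ * E⁻¹ := by group
    _ = E * (x * z) * z⁻¹ * E⁻¹ := by rw [(Subgroup.mem_center_iff.mp hz x).symm]
    _ = E * x * E⁻¹ := by group
    _ = x⁻¹ := h

theorem Inverts.of_involution {E h x : Δ} (hE : Inverts E x) (hx : x ^ 3 = 1) (hh : h * h ∈ Subgroup.center Δ)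
    (hc : ⁅h, x⁆ ∈ Subgroup.center Δ) : Inverts (E * h) x := by
  set w := ⁅h, x⁆ with hw
  have hwc : ∀ y, Commute w y := fun y => (Subgroup.mem_center_iff.mp hc y).symm
  have h1 : h * x * h⁻¹ = w * x := by rw [hw, commutatorElement_def]; group
  have hw3 : w ^ 3 = 1 := by
    have e : (h * x * h⁻¹) ^ 3 = 1 := by rw [conj_pow, hx, mul_one, mul_inv_cancel]
    rwa [h1, (hwc x).mul_pow, hx, mul_one] at e
  have hw2 : w * w = 1 := by
    have e : x = w * w * x := by
      calc x = (h * h) * x * (h * h)⁻¹ := by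
            rw [← Subgroup.mem_center_iff.mp hh x, mul_inv_cancel_right]
        _ = h * (h * x * h⁻¹) * h⁻¹ := by group
        _ = h * (w * x) * h⁻¹ := by rw [h1]
        _ = (h * w) * x * h⁻¹ := by group
        _ = (w * h) * x * h⁻¹ := by rw [(hwc h).eq]
        _ = w * (h * x * h⁻¹) := by group
        _ = w * w * x := by rw [h1, mul_assoc]
    exact mul_eq_right.mp e.symm
  have hw1 : w = 1 := by
    rw [pow_three, hw2, mul_one] at hw3
    exact hw3
  show E * h * x * (E * h)⁻¹ = x⁻¹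
  calc E * h * x * (E * h)⁻¹ = E * (h * x * h⁻¹) * E⁻¹ := by group
    _ = x⁻¹ := by rw [h1, hw1, one_mul]; exact hE

theorem sq_mul_left {e x : Δ} (h : Inverts e x) : (x * e) * (x * e) = e * e := by
  calc (x * e) * (x * e) = x * (e * x * e⁻¹) * e * e := by group
    _ = e * e := by rw [h]; group

theorem sq_mul_right {e y : Δ} (h : Inverts e⁻¹ y) (hc : e * e ∈ Subgroup.center Δ) :
    (e * y) * (e * y) = e * e := by
  calc (e * y) * (e * y) = (e * e) * (e⁻¹ * y * e⁻¹⁻¹) * y := by group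
    _ = e * e := by rw [h]; group

theorem inv_sq {b e f : Δ} (he : e * e = b) (hf : f * f = b) (hef : (e * f) * (e * f) = b)
    (hb : b ∈ Subgroup.center Δ) (hcomm : ⁅e, f⁆ ∈ Subgroup.center Δ) : b * b = 1 := by
  have hbc : ∀ y, Commute b y := fun y => (Subgroup.mem_center_iff.mp hb y).symm
  have hc : ⁅e, f⁆ = b⁻¹ := by
    calc ⁅e, f⁆ = e * f * (e * (e * e)⁻¹) * (f * (f * f)⁻¹) := by rw [commutatorElement_def]; group
      _ = e * f * (e * b⁻¹) * (f * b⁻¹) := by rw [he, hf]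
      _ = e * f * e * (b⁻¹ * f) * b⁻¹ := by group
      _ = e * f * e * (f * b⁻¹) * b⁻¹ := by rw [((hbc f).inv_left).eq]
      _ = (e * f * (e * f)) * b⁻¹ * b⁻¹ := by group
      _ = b⁻¹ := by rw [hef]; group
  have h1 : ⁅e * e, f⁆ = 1 := by
    rw [commutatorElement_eq_one_iff_commute, he]; exact hbc f
  have h2 : ⁅e * e, f⁆ = ⁅e, f⁆ * ⁅e, f⁆ := by
    calc ⁅e * e, f⁆ = e * ⁅e, f⁆ * e⁻¹ * ⁅e, f⁆ := by simp only [commutatorElement_def]; group
      _ = _ := by rw [Subgroup.mem_center_iff.mp hcomm e, mul_inv_cancel_right]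
  rw [h1, hc, ← mul_inv_rev] at h2
  exact inv_eq_one.mp h2.symm

end pieces

/-- In a stem extension of `PΩ₈⁺(2)` the kernel has at most four elements. -/
theorem card_ker_le_four {F : Type*} [Field F] [Fintype F] [CharP F 2] (hF : Fintype.card F = 2) {Δ : Type*}
    [Group Δ] [Finite Δ] {τ : Δ →* Cfsg.POmega F (Cfsg.quadFormPlus 4 F)} (hτ : Cfsg.IsStemExtension τ) :
    Nat.card τ.ker ≤ 4 := by
  haveI := finite_W8
  have hcen : ∀ {z : Δ}, τ z = 1 → z ∈ Subgroup.center Δ := fun h => hτ.2.1 h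
  let P : Fin 8 → Fin 8 → Cfsg.POmega F (Cfsg.quadFormPlus 4 F) :=
    fun i j => piHom F ⟨sr i * sr j, sr_mul_sr_mem i j⟩
  have hPmul : ∀ i j k, P i j * P j k = P i k := by
    intro i j k
    show piHom F _ * piHom F _ = piHom F _
    rw [← map_mul]
    congr 1
    refine Subtype.ext ?_
    show sr i * sr j * (sr j * sr k) = sr i * sr k
    rw [mul_assoc, ← mul_assoc (sr j), sr_mul_self, one_mul]
  have hP1 : ∀ i, P i i = 1 := fun i => mul_eq_left.mp (hPmul i i i)
  have hPinv : ∀ i j, (P i j)⁻¹ = P j i := fun i j => inv_eq_of_mul_eq_one_right (by rw [hPmul, hP1])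
  have hP2 : ∀ i j, mE8 i j = 2 → P i j = P j i := by
    intro i j h
    show piHom F _ = piHom F _
    congr 1
    exact Subtype.ext (sr_comm h)
  have hP3 : ∀ i j, mE8 i j = 3 → P i j ^ 3 = 1 := by
    intro i j h
    show piHom F _ ^ 3 = 1
    rw [← map_pow]
    convert map_one (piHom F)
    refine Subtype.ext ?_
    show (sr i * sr j) ^ 3 = 1
    rw [← h, sr_rel]
  have hPconj : ∀ i k j, mE8 i j = 2 → mE8 k j = 2 → mE8 i k = 3 → P k j * P i k * (P k j)⁻¹ = P k i := by
    intro i k j hij hkj hik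
    rw [hPinv]
    show piHom F _ * piHom F _ * piHom F _ = piHom F _
    rw [← map_mul, ← map_mul]
    congr 1
    refine Subtype.ext ?_
    show sr k * sr j * (sr i * sr k) * (sr j * sr k) = sr k * sr i
    calc sr k * sr j * (sr i * sr k) * (sr j * sr k)
        = sr k * (sr j * sr i) * (sr k * sr j) * sr k := by group
      _ = sr k * (sr i * sr j) * (sr j * sr k) * sr k := by rw [sr_comm hij, sr_comm hkj]
      _ = sr k * sr i * (sr j * sr j) * (sr k * sr k) := by group
      _ = sr k * sr i := by rw [sr_mul_self, sr_mul_self, mul_one, mul_one]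
  have hPcomm : ∀ a b u v, mE8 a u = 2 → mE8 a v = 2 → mE8 b u = 2 → mE8 b v = 2 →
      Commute (P a b) (P u v) := by
    intro a b u v hau hav hbu hbv
    refine Commute.map ?_ _
    refine Subtype.ext ?_
    exact (((show Commute (sr a) (sr u) from sr_comm hau).mul_right (sr_comm hav)).mul_left
      ((show Commute (sr b) (sr u) from sr_comm hbu).mul_right (sr_comm hbv)))
  let Inv : Δ → Cfsg.POmega F (Cfsg.quadFormPlus 4 F) → Prop := fun x g => ∀ E, τ E = g → Inverts E x
  have hlift : ∀ g, ∃ E, τ E = g := hτ.1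
  have hInv_of : ∀ x g E, τ E = g → Inverts E x → Inv x g := by
    intro x g E hE h E' hE'
    have := h.mul_central (hcen (z := E⁻¹ * E') (by rw [map_mul, map_inv, hE, hE', inv_mul_cancel]))
    rwa [mul_inv_cancel_left] at this
  have hedge : ∀ i k j, mE8 i k = 3 → mE8 i j = 2 → mE8 k j = 2 →
      ∃ x, x ^ 3 = 1 ∧ τ x = P i k ∧ Inv x (P k j) := by
    intro i k j hik hij hkj
    obtain ⟨a, ha⟩ := hlift (P i k)
    obtain ⟨E, hE⟩ := hlift (P k j)
    obtain ⟨h3, hinv⟩ := cube_of_inverter (a := a) (E := E) (hcen (by rw [map_pow, ha, hP3 i k hik]))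
      (hcen (by
        rw [map_mul, map_mul, map_mul, map_inv, ha, hE, hPconj i k j hij hkj hik, ← hPinv i k, inv_mul_cancel]))
    refine ⟨⁅E, a⁆, h3, ?_, hInv_of _ _ E hE hinv⟩
    rw [map_commutatorElement, commutatorElement_def, ha, hE, hPconj i k j hij hkj hik, hPinv]
    have e3 := hP3 i k hik
    rw [pow_three] at e3
    calc P k i * P k i = (P i k * P i k)⁻¹ := by rw [mul_inv_rev, hPinv]
      _ = P i k := inv_eq_of_mul_eq_one_left e3
  have hstep : ∀ i k a b x, τ x = P i k → x ^ 3 = 1 → Inv x (P k a) → mE8 a b = 2 → mE8 i a = 2 →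
      mE8 k a = 2 → mE8 i b = 2 ∧ mE8 k b = 2 → Inv x (P k b) := by
    intro i k a b x hx hx3 hI hab hia hka hb
    obtain ⟨E, hE⟩ := hlift (P k a)
    obtain ⟨h, hh⟩ := hlift (P a b)
    refine hInv_of x _ (E * h) (by rw [map_mul, hE, hh, hPmul]) ((hI E hE).of_involution hx3 (hcen ?_) (hcen ?_))
    · rw [map_mul, hh]
      nth_rewrite 2 [hP2 a b hab]
      rw [hPmul, hP1]
    · rw [map_commutatorElement, hh, hx, commutatorElement_eq_one_iff_commute]
      exact hPcomm a b i k (by rw [← hia]; exact CoxeterMatrix.symmetric _ _ _)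
        (by rw [← hka]; exact CoxeterMatrix.symmetric _ _ _) (by rw [← hb.1]; exact CoxeterMatrix.symmetric _ _ _)
        (by rw [← hb.2]; exact CoxeterMatrix.symmetric _ _ _)
  obtain ⟨t02, u02, v02, w02_1⟩ := hedge 0 2 1 (by decide) (by decide) (by decide)
  have w02_4 := hstep 0 2 1 4 _ v02 u02 w02_1 (by decide) (by decide) (by decide) (by decide)
  have w02_5 := hstep 0 2 1 5 _ v02 u02 w02_1 (by decide) (by decide) (by decide) (by decide)
  have w02_6 := hstep 0 2 1 6 _ v02 u02 w02_1 (by decide) (by decide) (by decide) (by decide)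
  have w02_7 := hstep 0 2 1 7 _ v02 u02 w02_1 (by decide) (by decide) (by decide) (by decide)
  obtain ⟨t23, u23, v23, w23_5⟩ := hedge 2 3 5 (by decide) (by decide) (by decide)
  have w23_7 := hstep 2 3 5 7 _ v23 u23 w23_5 (by decide) (by decide) (by decide) (by decide)
  obtain ⟨t13, u13, v13, w13_0⟩ := hedge 1 3 0 (by decide) (by decide) (by decide)
  have w13_5 := hstep 1 3 0 5 _ v13 u13 w13_0 (by decide) (by decide) (by decide) (by decide)
  have w13_6 := hstep 1 3 0 6 _ v13 u13 w13_0 (by decide) (by decide) (by decide) (by decide)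
  have w13_7 := hstep 1 3 0 7 _ v13 u13 w13_0 (by decide) (by decide) (by decide) (by decide)
  obtain ⟨t34, u34, v34, w34_0⟩ := hedge 3 4 0 (by decide) (by decide) (by decide)
  have w34_6 := hstep 3 4 0 6 _ v34 u34 w34_0 (by decide) (by decide) (by decide) (by decide)
  have w34_7 := hstep 3 4 0 7 _ v34 u34 w34_0 (by decide) (by decide) (by decide) (by decide)
  obtain ⟨t45, u45, v45, w45_0⟩ := hedge 4 5 0 (by decide) (by decide) (by decide)
  have w45_1 := hstep 4 5 0 1 _ v45 u45 w45_0 (by decide) (by decide) (by decide) (by decide)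
  have w45_7 := hstep 4 5 0 7 _ v45 u45 w45_0 (by decide) (by decide) (by decide) (by decide)
  have w45_2 := hstep 4 5 1 2 _ v45 u45 w45_1 (by decide) (by decide) (by decide) (by decide)
  obtain ⟨t56, u56, v56, w56_0⟩ := hedge 5 6 0 (by decide) (by decide) (by decide)
  have w56_1 := hstep 5 6 0 1 _ v56 u56 w56_0 (by decide) (by decide) (by decide) (by decide)
  have w56_3 := hstep 5 6 0 3 _ v56 u56 w56_0 (by decide) (by decide) (by decide) (by decide)
  have w56_2 := hstep 5 6 1 2 _ v56 u56 w56_1 (by decide) (by decide) (by decide) (by decide)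
  obtain ⟨t67, u67, v67, w67_0⟩ := hedge 6 7 0 (by decide) (by decide) (by decide)
  have w67_1 := hstep 6 7 0 1 _ v67 u67 w67_0 (by decide) (by decide) (by decide) (by decide)
  have w67_3 := hstep 6 7 0 3 _ v67 u67 w67_0 (by decide) (by decide) (by decide) (by decide)
  have w67_4 := hstep 6 7 0 4 _ v67 u67 w67_0 (by decide) (by decide) (by decide) (by decide)
  have w67_2 := hstep 6 7 1 2 _ v67 u67 w67_1 (by decide) (by decide) (by decide) (by decide)
  let d : Fin 8 → Δ := ![t02 * t23, t13, t23, 1, t34⁻¹, t45⁻¹ * t34⁻¹, t56⁻¹ * (t45⁻¹ * t34⁻¹),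
    t67⁻¹ * (t56⁻¹ * (t45⁻¹ * t34⁻¹))]
  have hd : ∀ i, τ (d i) = P i 3 := by
    intro i
    fin_cases i
    · show τ (t02 * t23) = _
      rw [map_mul, v02, v23, hPmul]; rfl
    · exact v13
    · exact v23
    · show τ 1 = P 3 3
      rw [map_one, hP1]
    · show τ t34⁻¹ = _
      rw [map_inv, v34, hPinv]; rfl
    · show τ (t45⁻¹ * t34⁻¹) = _
      rw [map_mul, map_inv, map_inv, v34, v45, hPinv, hPinv, hPmul]; rfl
    · show τ (t56⁻¹ * (t45⁻¹ * t34⁻¹)) = _
      rw [map_mul, map_mul, map_inv, map_inv, map_inv, v34, v45, v56, hPinv, hPinv, hPinv, hPmul, hPmul]; rfl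
    · show τ (t67⁻¹ * (t56⁻¹ * (t45⁻¹ * t34⁻¹))) = _
      rw [map_mul, map_mul, map_mul, map_inv, map_inv, map_inv, map_inv, v34, v45, v56, v67, hPinv, hPinv, hPinv,
        hPinv, hPmul, hPmul, hPmul]
      rfl
  have hdd : ∀ i j, τ (d i * (d j)⁻¹) = P i j := fun i j => by rw [map_mul, map_inv, hd, hd, hPinv, hPmul]
  have de02 : d 0 * (d 2)⁻¹ = t02 := mul_inv_cancel_right t02 t23
  have de23 : d 2 * (d 3)⁻¹ = t23 := by show t23 * (1 : Δ)⁻¹ = t23; group
  have de13 : d 1 * (d 3)⁻¹ = t13 := by show t13 * (1 : Δ)⁻¹ = t13; group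
  have de34 : d 3 * (d 4)⁻¹ = t34 := by show 1 * t34⁻¹⁻¹ = t34; group
  have de45 : d 4 * (d 5)⁻¹ = t45 := by show t34⁻¹ * (t45⁻¹ * t34⁻¹)⁻¹ = t45; group
  have de56 : d 5 * (d 6)⁻¹ = t56 := by
    show t45⁻¹ * t34⁻¹ * (t56⁻¹ * (t45⁻¹ * t34⁻¹))⁻¹ = t56; group
  have de67 : d 6 * (d 7)⁻¹ = t67 := by
    show t56⁻¹ * (t45⁻¹ * t34⁻¹) * (t67⁻¹ * (t56⁻¹ * (t45⁻¹ * t34⁻¹)))⁻¹ = t67; group
  let Pair : Fin 8 → Fin 8 → Fin 8 → Prop := fun u v b =>
    Inv (d u * (d v)⁻¹) (P u b) ∧ Inv (d u * (d v)⁻¹) (P b u) ∧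
    Inv (d u * (d v)⁻¹) (P v b) ∧ Inv (d u * (d v)⁻¹) (P b v)
  have hsym : ∀ u v b, Pair u v b → Pair v u b := by
    intro u v b h
    have e : d v * (d u)⁻¹ = (d u * (d v)⁻¹)⁻¹ := by group
    refine ⟨?_, ?_, ?_, ?_⟩ <;> intro E hE <;> rw [e]
    · exact (h.2.2.1 E hE).inv_arg
    · exact (h.2.2.2 E hE).inv_arg
    · exact (h.1 E hE).inv_arg
    · exact (h.2.1 E hE).inv_arg
  have hpair : ∀ i k b x, mE8 i k = 3 → mE8 i b = 2 → mE8 k b = 2 → d i * (d k)⁻¹ = x → τ x = P i k → x ^ 3 = 1 →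
      Inv x (P k b) → Pair i k b := by
    intro i k b x _ _ _ hx hτx _ hI
    obtain ⟨E, hE⟩ := hlift (P k b)
    have h1 := hI E hE
    subst hx
    refine ⟨hInv_of _ _ ((d i * (d k)⁻¹) * E) (by rw [map_mul, hτx, hE, hPmul]) h1.mul_left_self,
      hInv_of _ _ (((d i * (d k)⁻¹) * E)⁻¹) (by rw [map_inv, map_mul, hτx, hE, hPmul, hPinv]) h1.mul_left_self.inv,
      hI, hInv_of _ _ E⁻¹ (by rw [map_inv, hE, hPinv]) h1.inv⟩
  have hw02 : ∀ b : Fin 8, b ∈ ([1, 4, 5, 6, 7] : List (Fin 8)) → Pair 0 2 b := by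
    intro b hb
    simp only [List.mem_cons, List.not_mem_nil, or_false] at hb
    rcases hb with rfl | rfl | rfl | rfl | rfl
    · exact hpair 0 2 _ t02 (by decide) (by decide) (by decide) de02 v02 u02 w02_1
    · exact hpair 0 2 _ t02 (by decide) (by decide) (by decide) de02 v02 u02 w02_4
    · exact hpair 0 2 _ t02 (by decide) (by decide) (by decide) de02 v02 u02 w02_5
    · exact hpair 0 2 _ t02 (by decide) (by decide) (by decide) de02 v02 u02 w02_6
    · exact hpair 0 2 _ t02 (by decide) (by decide) (by decide) de02 v02 u02 w02_7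
  have hw23 : ∀ b : Fin 8, b ∈ ([5, 7] : List (Fin 8)) → Pair 2 3 b := by
    intro b hb
    simp only [List.mem_cons, List.not_mem_nil, or_false] at hb
    rcases hb with rfl | rfl
    · exact hpair 2 3 _ t23 (by decide) (by decide) (by decide) de23 v23 u23 w23_5
    · exact hpair 2 3 _ t23 (by decide) (by decide) (by decide) de23 v23 u23 w23_7
  have hw13 : ∀ b : Fin 8, b ∈ ([0, 5, 6, 7] : List (Fin 8)) → Pair 1 3 b := by
    intro b hb
    simp only [List.mem_cons, List.not_mem_nil, or_false] at hb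
    rcases hb with rfl | rfl | rfl | rfl
    · exact hpair 1 3 _ t13 (by decide) (by decide) (by decide) de13 v13 u13 w13_0
    · exact hpair 1 3 _ t13 (by decide) (by decide) (by decide) de13 v13 u13 w13_5
    · exact hpair 1 3 _ t13 (by decide) (by decide) (by decide) de13 v13 u13 w13_6
    · exact hpair 1 3 _ t13 (by decide) (by decide) (by decide) de13 v13 u13 w13_7
  have hw34 : ∀ b : Fin 8, b ∈ ([0, 6, 7] : List (Fin 8)) → Pair 3 4 b := by
    intro b hb
    simp only [List.mem_cons, List.not_mem_nil, or_false] at hb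
    rcases hb with rfl | rfl | rfl
    · exact hpair 3 4 _ t34 (by decide) (by decide) (by decide) de34 v34 u34 w34_0
    · exact hpair 3 4 _ t34 (by decide) (by decide) (by decide) de34 v34 u34 w34_6
    · exact hpair 3 4 _ t34 (by decide) (by decide) (by decide) de34 v34 u34 w34_7
  have hw45 : ∀ b : Fin 8, b ∈ ([0, 1, 2, 7] : List (Fin 8)) → Pair 4 5 b := by
    intro b hb
    simp only [List.mem_cons, List.not_mem_nil, or_false] at hb
    rcases hb with rfl | rfl | rfl | rfl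
    · exact hpair 4 5 _ t45 (by decide) (by decide) (by decide) de45 v45 u45 w45_0
    · exact hpair 4 5 _ t45 (by decide) (by decide) (by decide) de45 v45 u45 w45_1
    · exact hpair 4 5 _ t45 (by decide) (by decide) (by decide) de45 v45 u45 w45_2
    · exact hpair 4 5 _ t45 (by decide) (by decide) (by decide) de45 v45 u45 w45_7
  have hw56 : ∀ b : Fin 8, b ∈ ([0, 1, 2, 3] : List (Fin 8)) → Pair 5 6 b := by
    intro b hb
    simp only [List.mem_cons, List.not_mem_nil, or_false] at hb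
    rcases hb with rfl | rfl | rfl | rfl
    · exact hpair 5 6 _ t56 (by decide) (by decide) (by decide) de56 v56 u56 w56_0
    · exact hpair 5 6 _ t56 (by decide) (by decide) (by decide) de56 v56 u56 w56_1
    · exact hpair 5 6 _ t56 (by decide) (by decide) (by decide) de56 v56 u56 w56_2
    · exact hpair 5 6 _ t56 (by decide) (by decide) (by decide) de56 v56 u56 w56_3
  have hw67 : ∀ b : Fin 8, b ∈ ([0, 1, 2, 3, 4] : List (Fin 8)) → Pair 6 7 b := by
    intro b hb
    simp only [List.mem_cons, List.not_mem_nil, or_false] at hb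
    rcases hb with rfl | rfl | rfl | rfl | rfl
    · exact hpair 6 7 _ t67 (by decide) (by decide) (by decide) de67 v67 u67 w67_0
    · exact hpair 6 7 _ t67 (by decide) (by decide) (by decide) de67 v67 u67 w67_1
    · exact hpair 6 7 _ t67 (by decide) (by decide) (by decide) de67 v67 u67 w67_2
    · exact hpair 6 7 _ t67 (by decide) (by decide) (by decide) de67 v67 u67 w67_3
    · exact hpair 6 7 _ t67 (by decide) (by decide) (by decide) de67 v67 u67 w67_4
  set b := d 0 * (d 1)⁻¹ * (d 0 * (d 1)⁻¹) with hb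
  have hsqker : ∀ i j, mE8 i j = 2 → τ (d i * (d j)⁻¹ * (d i * (d j)⁻¹)) = 1 := by
    intro i j h
    rw [map_mul, hdd]
    nth_rewrite 2 [hP2 i j h]
    rw [hPmul, hP1]
  have hleft : ∀ a c e, Pair a e c → d a * (d c)⁻¹ * (d a * (d c)⁻¹) = b → d e * (d c)⁻¹ * (d e * (d c)⁻¹) = b := by
    intro a c e h hq
    have hI : Inverts (d a * (d c)⁻¹) (d e * (d a)⁻¹) := (hsym _ _ _ h).2.2.1 _ (hdd a c)
    rw [← hq, show d e * (d c)⁻¹ = (d e * (d a)⁻¹) * (d a * (d c)⁻¹) by group]
    exact sq_mul_left hI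
  have hb01 : b ∈ Subgroup.center Δ := hcen (hsqker 0 1 (by decide))
  have hright : ∀ a c e, Pair c e a → d a * (d c)⁻¹ * (d a * (d c)⁻¹) = b → d a * (d e)⁻¹ * (d a * (d e)⁻¹) = b := by
    intro a c e h hq
    have hI : Inverts (d a * (d c)⁻¹)⁻¹ (d c * (d e)⁻¹) :=
      h.1 _ (by rw [map_inv, hdd, hPinv])
    rw [← hq, show d a * (d e)⁻¹ = (d a * (d c)⁻¹) * (d c * (d e)⁻¹) by group]
    exact sq_mul_right hI (by rw [hq]; exact hb01)
  have q01 : d 0 * (d 1)⁻¹ * (d 0 * (d 1)⁻¹) = b := rfl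
  have q21 := hleft 0 1 2 (hw02 1 (by decide)) q01
  have q03 := hright 0 1 3 (hw13 0 (by decide)) q01
  have q04 := hright 0 3 4 (hw34 0 (by decide)) q03
  have q05 := hright 0 4 5 (hw45 0 (by decide)) q04
  have q06 := hright 0 5 6 (hw56 0 (by decide)) q05
  have q07 := hright 0 6 7 (hw67 0 (by decide)) q06
  have q24 := hleft 0 4 2 (hw02 4 (by decide)) q04
  have q25 := hleft 0 5 2 (hw02 5 (by decide)) q05
  have q26 := hleft 0 6 2 (hw02 6 (by decide)) q06
  have q27 := hleft 0 7 2 (hw02 7 (by decide)) q07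
  have q35 := hleft 2 5 3 (hw23 5 (by decide)) q25
  have q37 := hleft 2 7 3 (hw23 7 (by decide)) q27
  have q15 := hleft 3 5 1 (hsym _ _ _ (hw13 5 (by decide))) q35
  have q17 := hleft 3 7 1 (hsym _ _ _ (hw13 7 (by decide))) q37
  have q47 := hleft 3 7 4 (hw34 7 (by decide)) q37
  have q14 := hright 1 5 4 (hsym _ _ _ (hw45 1 (by decide))) q15
  have q57 := hleft 4 7 5 (hw45 7 (by decide)) q47
  have q16 := hright 1 5 6 (hw56 1 (by decide)) q15
  have q36 := hright 3 5 6 (hw56 3 (by decide)) q35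
  have q46 := hright 4 7 6 (hsym _ _ _ (hw67 4 (by decide))) q47
  have hb2 : b * b = 1 := by
    refine inv_sq q04 q46 ?_ hb01 (hcen ?_)
    · rw [show d 0 * (d 4)⁻¹ * (d 4 * (d 6)⁻¹) = d 0 * (d 6)⁻¹ by group]; exact q06
    · rw [map_commutatorElement, hdd, hdd, commutatorElement_eq_one_iff_commute]
      have c1 : P 0 4 * P 4 6 = P 4 6 * P 0 4 := by
        rw [hPmul, ← hP2 4 0 (by decide)]
        nth_rewrite 1 [hP2 4 6 (by decide)]
        rw [hP2 4 0 (by decide)]
        have k1 : P 6 4 * P 0 4 = (P 4 0 * P 4 6)⁻¹ := by rw [mul_inv_rev, hPinv, hPinv]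
        rw [k1, hP2 4 0 (by decide), hPmul, hPinv, hP2 6 0 (by decide)]
      exact c1
  have hb_inv : b⁻¹ = b := inv_eq_of_mul_eq_one_right hb2
  have hall : ∀ i j, mE8 i j = 2 → d i * (d j)⁻¹ * (d i * (d j)⁻¹) = b := by
    intro i j h
    have hflip : ∀ i j, d i * (d j)⁻¹ * (d i * (d j)⁻¹) = b → d j * (d i)⁻¹ * (d j * (d i)⁻¹) = b := by
      intro i j e
      rw [← hb_inv, ← e]; group
    fin_cases i <;> fin_cases j <;>
      first
        | exact absurd h (by decide)
        | assumption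
        | exact hflip _ _ ‹_›
  -- the quotient by `b`
  have hbker : Subgroup.zpowers b ≤ τ.ker := Subgroup.zpowers_le.mpr (hsqker 0 1 (by decide))
  haveI : (Subgroup.zpowers b).Normal := ⟨fun x hx w => by
    rw [Subgroup.mem_center_iff.mp (hcen (hbker hx)) w, mul_inv_cancel_right]; exact hx⟩
  let q := QuotientGroup.mk' (Subgroup.zpowers b)
  have hrel : ∀ i j, (q (d i) * (q (d j))⁻¹) ^ mE8 i j = 1 := by
    intro i j
    rw [← map_inv, ← map_mul, ← map_pow]
    rcases mE8_cases i j with ⟨h, rfl⟩ | ⟨h, -⟩ | ⟨h, -⟩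
    · rw [mul_inv_cancel, one_pow, map_one]
    · rw [h, pow_two, hall i j h]
      exact (QuotientGroup.eq_one_iff b).mpr (Subgroup.mem_zpowers b)
    · rw [h]
      have h3 : (d i * (d j)⁻¹) ^ 3 = 1 := by
        have hflip : ∀ i j, (d i * (d j)⁻¹) ^ 3 = 1 → (d j * (d i)⁻¹) ^ 3 = 1 := by
          intro i j e
          rw [show d j * (d i)⁻¹ = (d i * (d j)⁻¹)⁻¹ by group, inv_pow, e, inv_one]
        fin_cases i <;> fin_cases j <;>
          first
            | exact absurd h (by decide)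
            | (rw [show d _ * (d _)⁻¹ = t02 from de02]; exact u02)
            | exact de02 ▸ u02
            | exact de23 ▸ u23
            | exact de13 ▸ u13
            | exact de34 ▸ u34
            | exact de45 ▸ u45
            | exact de56 ▸ u56
            | exact de67 ▸ u67
            | exact hflip _ _ (de02 ▸ u02)
            | exact hflip _ _ (de23 ▸ u23)
            | exact hflip _ _ (de13 ▸ u13)
            | exact hflip _ _ (de34 ▸ u34)
            | exact hflip _ _ (de45 ▸ u45)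
            | exact hflip _ _ (de56 ▸ u56)
            | exact hflip _ _ (de67 ▸ u67)
      rw [h3, map_one]
  obtain ⟨φ, hφ⟩ := exists_evenHom (fun i => q (d i)) hrel
  -- `φ` is onto
  have hgen : Subgroup.closure (Set.range d) = ⊤ := by
    set H := Subgroup.closure (Set.range d)
    let τbar := (QuotientGroup.lift (Subgroup.zpowers b) τ hbker)
    have hcomp : τbar.comp φ = piHom F := even_ext fun i j => by
      show τbar (φ _) = _
      rw [hφ, ← map_inv q, ← map_mul q]
      exact hdd i j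
    have hmap : H.map τ = ⊤ := by
      rw [eq_top_iff]
      intro g _
      obtain ⟨k, rfl⟩ := piHom_surjective hF g
      let R : Subgroup K8 := ((H.map τ).comap (piHom F))
      suffices hR : R = ⊤ from hR.ge (Subgroup.mem_top k)
      have hgenK : ∀ i j, (⟨sr i * sr j, sr_mul_sr_mem i j⟩ : K8) ∈ R := fun i j =>
        ⟨d i * (d j)⁻¹, mul_mem (Subgroup.subset_closure ⟨i, rfl⟩) (inv_mem (Subgroup.subset_closure ⟨j, rfl⟩)),
          hdd i j⟩
      rw [eq_top_iff]
      intro k _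
      obtain ⟨l, hl⟩ := CoxeterMatrix.E₈.toCoxeterSystem.wordProd_surjective k.1
      rw [CoxeterSystem.wordProd, CoxeterMatrix.toCoxeterSystem_simple] at hl
      suffices key : ∀ l : List (Fin 8), ∀ hl : (l.map sr).prod ∈ K8, (⟨_, hl⟩ : K8) ∈ R by
        have hk : (l.map sr).prod ∈ K8 := by rw [show (l.map sr).prod = k.1 from hl]; exact k.2
        rw [show k = ⟨_, hk⟩ from Subtype.ext hl.symm]
        exact key l hk
      intro l
      induction l using List.twoStepInduction with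
      | nil =>
        intro hl
        rw [show (⟨_, hl⟩ : K8) = 1 from Subtype.ext (by simp)]
        exact one_mem _
      | singleton i =>
        intro hl
        simp [sgn8_sr] at hl
      | cons_cons i j l ih _ =>
        intro hl
        have e : ((i :: j :: l).map sr).prod = sr i * sr j * (l.map sr).prod := by simp [mul_assoc]
        have hl2 : (l.map sr).prod ∈ K8 := by
          rw [e] at hl
          exact (Subgroup.mul_mem_cancel_left _ (sr_mul_sr_mem i j)).mp hl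
        rw [show (⟨_, hl⟩ : K8) = ⟨sr i * sr j, sr_mul_sr_mem i j⟩ * ⟨_, hl2⟩ from Subtype.ext e]
        exact mul_mem (hgenK i j) (ih hl2)
    have hdec : ∀ x : Δ, ∃ h ∈ H, ∃ z ∈ τ.ker, x = h * z := by
      intro x
      obtain ⟨h, hh, e⟩ := hmap.ge (Subgroup.mem_top (τ x))
      exact ⟨h, hh, h⁻¹ * x, by rw [MonoidHom.mem_ker, map_mul, map_inv, e, inv_mul_cancel], by group⟩
    have hle : commutator Δ ≤ H := by
      rw [commutator_def, Subgroup.commutator_le]
      intro x _ x' _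
      obtain ⟨h, hh, z, hz, rfl⟩ := hdec x
      obtain ⟨h', hh', z', hz', rfl⟩ := hdec x'
      have hzc : ∀ y, Commute z y := fun y => (Subgroup.mem_center_iff.mp (hτ.2.1 hz) y).symm
      have hzc' : ∀ y, Commute z' y := fun y => (Subgroup.mem_center_iff.mp (hτ.2.1 hz') y).symm
      have e : ⁅h * z, h' * z'⁆ = ⁅h, h'⁆ := by
        simp only [commutatorElement_def, mul_inv_rev]
        calc h * z * (h' * z') * (z⁻¹ * h⁻¹) * (z'⁻¹ * h'⁻¹)
            = h * (z * (h' * z')) * z⁻¹ * h⁻¹ * z'⁻¹ * h'⁻¹ := by group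
          _ = h * (h' * z' * z) * z⁻¹ * h⁻¹ * z'⁻¹ * h'⁻¹ := by rw [(hzc (h' * z')).eq]
          _ = h * h' * (z' * h⁻¹) * z'⁻¹ * h'⁻¹ := by group
          _ = h * h' * (h⁻¹ * z') * z'⁻¹ * h'⁻¹ := by rw [(hzc' h⁻¹).eq]
          _ = _ := by group
      rw [e, commutatorElement_def]
      exact mul_mem (mul_mem (mul_mem hh hh') (inv_mem hh)) (inv_mem hh')
    refine eq_top_iff.mpr fun x _ => ?_
    obtain ⟨h, hh, z, hz, rfl⟩ := hdec x
    exact mul_mem hh (hle (hτ.2.2 hz))
  have hsurj : Function.Surjective φ := by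
    rw [← MonoidHom.range_eq_top, eq_top_iff, ← Subgroup.map_top_of_surjective q (QuotientGroup.mk'_surjective _),
      ← hgen, MonoidHom.map_closure, Subgroup.closure_le]
    rintro _ ⟨_, ⟨i, rfl⟩, rfl⟩
    refine ⟨⟨sr i * sr 3, sr_mul_sr_mem i 3⟩, ?_⟩
    rw [hφ]
    show q (d i) * (q 1)⁻¹ = q (d i)
    rw [map_one, inv_one, mul_one]
  have hcard : Nat.card (Δ ⧸ Subgroup.zpowers b) ≤ 348364800 :=
    (Nat.card_le_card_of_surjective _ hsurj).trans_eq card_K8
  have hΔ : Nat.card Δ = 174182400 * Nat.card τ.ker := by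
    rw [← (card_POmega8 hF).1, Subgroup.card_eq_card_quotient_mul_card_subgroup τ.ker,
      Nat.card_congr (QuotientGroup.quotientKerEquivOfSurjective τ hτ.1).toEquiv]
  have hB2 : Nat.card (Subgroup.zpowers b) ≤ 2 := by
    rw [Nat.card_zpowers]
    exact orderOf_le_of_pow_eq_one (by norm_num) (by rw [pow_two, hb2])
  have h := Subgroup.card_eq_card_quotient_mul_card_subgroup (Subgroup.zpowers b)
  rw [hΔ] at h
  have := Nat.mul_le_mul hcard hB2
  omega

end Cfsg.Agent.H14.Omega8
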