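import Cfsg.Agent.H14.Omega8.Coxeter
import Cfsg.Agent.H14.Sp6.Cover
import Cfsg.Prelude.Def_KGroupFacts

/-!
# The fourfold cover of `PΩ₈⁺(2)`

Pairs of half-spin matrices over the field with three elements lifting products of two reflections of `E₈`.
-/

set_option autoImplicit false

namespace Cfsg.Agent.H14.Omega8

open Cfsg.Agent
open Cfsg.Agent.H14.Sp6 (Mat8 signs mem_signs signs_le_center)
open scoped commutatorElement

/-- A half-spin matrix of an even lift. -/
def halfMat (i : Fin 8) (s : Fin 2) : Mat8 :=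
  Matrix.of fun a b =>
    (((evenLiftsCode >>> (2 * (128 * i.val + 64 * s.val + 8 * a.val + b.val))) % 4 : ℕ) : ZMod 3)

theorem halfMat_orth : ∀ i s, halfMat i s * (halfMat i s).transpose = 1 ∧
    (halfMat i s).transpose * halfMat i s = 1 := by decide +kernel

/-- The even lift of `sᵢs₃` as a pair of units. -/
def evenUnit (i : Fin 8) : Mat8ˣ × Mat8ˣ :=
  (⟨halfMat i 0, (halfMat i 0).transpose, (halfMat_orth i 0).1, (halfMat_orth i 0).2⟩,
    ⟨halfMat i 1, (halfMat i 1).transpose, (halfMat_orth i 1).1, (halfMat_orth i 1).2⟩)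

/-- The four sign pairs. -/
def signs2 : Subgroup (Mat8ˣ × Mat8ˣ) := signs.prod signs

theorem signs2_le_center : signs2 ≤ Subgroup.center (Mat8ˣ × Mat8ˣ) := fun x hx =>
  Subgroup.mem_center_iff.mpr fun y => Prod.ext (Subgroup.mem_center_iff.mp (signs_le_center hx.1) y.1)
    (Subgroup.mem_center_iff.mp (signs_le_center hx.2) y.2)

instance instSigns2Normal : signs2.Normal :=
  ⟨fun x hx g => by rw [Subgroup.mem_center_iff.mp (signs2_le_center hx) g, mul_inv_cancel_right]; exact hx⟩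

theorem mem_signs2 {x : Mat8ˣ × Mat8ˣ} :
    x ∈ signs2 ↔ x = (1, 1) ∨ x = (-1, -1) ∨ x = (-1, 1) ∨ x = (1, -1) := by
  rw [signs2, Subgroup.mem_prod, mem_signs, mem_signs]
  obtain ⟨a, b⟩ := x
  simp only [Prod.mk.injEq]
  tauto

/-- A product `dᵢdⱼ⁻¹` in one half. -/
def halfQuot (i j : Fin 8) (s : Fin 2) : Mat8 := halfMat i s * (halfMat j s).transpose

theorem half_comm : ∀ i j, mE8 i j = 2 → ∀ s, halfQuot i j s = -halfQuot j i s := by decide +kernel

theorem half_cube : ∀ i j, i < j → mE8 i j = 3 → ∀ s, halfQuot i j s * halfQuot i j s = halfQuot j i s := by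
  decide +kernel

theorem evenUnit_quot (i j : Fin 8) :
    ((evenUnit i * (evenUnit j)⁻¹).1 : Mat8) = halfQuot i j 0 ∧
      ((evenUnit i * (evenUnit j)⁻¹).2 : Mat8) = halfQuot i j 1 := ⟨rfl, rfl⟩

theorem quot_swap (i j : Fin 8) : evenUnit j * (evenUnit i)⁻¹ = (evenUnit i * (evenUnit j)⁻¹)⁻¹ := by
  rw [mul_inv_rev, inv_inv]

theorem evenUnit_cube {i j : Fin 8} (h : mE8 i j = 3) : (evenUnit i * (evenUnit j)⁻¹) ^ 3 = 1 := by
  have key : ∀ i j, i < j → mE8 i j = 3 → (evenUnit i * (evenUnit j)⁻¹) ^ 3 = 1 := by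
    intro i j hlt h
    have e : evenUnit i * (evenUnit j)⁻¹ * (evenUnit i * (evenUnit j)⁻¹) = evenUnit j * (evenUnit i)⁻¹ :=
      Prod.ext (Units.ext (half_cube i j hlt h 0)) (Units.ext (half_cube i j hlt h 1))
    rw [pow_succ, pow_two, e, quot_swap i j, inv_mul_cancel]
  have hne : i ≠ j := by
    rintro rfl
    rw [show mE8 i i = 1 from CoxeterMatrix.diagonal _ i] at h
    omega
  rcases lt_or_gt_of_ne hne with hlt | hlt
  · exact key i j hlt h
  · rw [quot_swap j i, inv_pow, key j i hlt (by rw [← h]; exact CoxeterMatrix.symmetric _ _ _), inv_one]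

theorem evenUnit_rel (i j : Fin 8) : (evenUnit i * (evenUnit j)⁻¹) ^ mE8 i j = (1, 1) ∨
    (evenUnit i * (evenUnit j)⁻¹) ^ mE8 i j = (-1, -1) := by
  rcases mE8_cases i j with ⟨h, rfl⟩ | ⟨h, -⟩ | ⟨h, -⟩
  · exact Or.inl (by rw [mul_inv_cancel, one_pow, Prod.mk_one_one])
  · refine Or.inr ?_
    have e : evenUnit i * (evenUnit j)⁻¹ = (-1, -1) * (evenUnit j * (evenUnit i)⁻¹) := by
      refine Prod.ext (Units.ext ?_) (Units.ext ?_)
      · simp only [Prod.fst_mul, Units.val_mul, Units.val_neg, Units.val_one, neg_mul, one_mul]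
        exact half_comm i j h 0
      · simp only [Prod.snd_mul, Units.val_mul, Units.val_neg, Units.val_one, neg_mul, one_mul]
        exact half_comm i j h 1
    rw [h, pow_two]
    nth_rewrite 1 [e]
    rw [mul_assoc, quot_swap i j, inv_mul_cancel, mul_one]
  · exact Or.inl (by rw [h, evenUnit_cube h, Prod.mk_one_one])

theorem evenUnit_base : evenUnit 3 = (1, 1) := by decide +kernel

/-- The edges, each with a node joined to neither end. -/
def edgeList : List (Fin 8 × Fin 8 × Fin 8) :=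
  [(0, 2, 1), (2, 3, 5), (1, 3, 0), (4, 3, 0), (5, 4, 0), (6, 5, 0), (7, 6, 0)]

theorem half_edge : ∀ e ∈ edgeList, ∀ s,
    halfQuot e.2.1 e.2.2 s * halfQuot e.1 e.2.1 s = halfQuot e.2.1 e.1 s * halfQuot e.2.1 e.2.2 s := by
  decide +kernel

theorem edge_three : ∀ e ∈ edgeList, mE8 e.1 e.2.1 = 3 := by decide +kernel

theorem edge_matrices (e : Fin 8 × Fin 8 × Fin 8) (he : e ∈ edgeList) :
    ⁅evenUnit e.2.1 * (evenUnit e.2.2)⁻¹, evenUnit e.1 * (evenUnit e.2.1)⁻¹⁆ =
      evenUnit e.1 * (evenUnit e.2.1)⁻¹ := by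
  have h : evenUnit e.2.1 * (evenUnit e.2.2)⁻¹ * (evenUnit e.1 * (evenUnit e.2.1)⁻¹) =
      evenUnit e.2.1 * (evenUnit e.1)⁻¹ * (evenUnit e.2.1 * (evenUnit e.2.2)⁻¹) :=
    Prod.ext (Units.ext (half_edge e he 0)) (Units.ext (half_edge e he 1))
  have h3 := evenUnit_cube (edge_three e he)
  rw [commutatorElement_def, h, quot_swap e.1 e.2.1, mul_inv_cancel_right, ← mul_inv_rev]
  rw [pow_three] at h3
  exact inv_eq_of_mul_eq_one_left h3

theorem edge_words : ∀ e ∈ edgeList,
    H70.sameAction H47.cartanE8 [e.2.1, e.2.2, e.1, e.2.1, e.2.2, e.2.1, e.2.1, e.1] [e.1, e.2.1] = true := by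
  decide +kernel

/-- The matrix of the Coxeter element. -/
def coxUnit : Mat8ˣ × Mat8ˣ :=
  evenUnit 0 * (evenUnit 1)⁻¹ * (evenUnit 2 * (evenUnit 3)⁻¹) * (evenUnit 4 * (evenUnit 5)⁻¹) *
    (evenUnit 6 * (evenUnit 7)⁻¹)

theorem coxUnit_pow : coxUnit ^ 15 = (-1, 1) := by decide +kernel

theorem sq_unit : (evenUnit 0 * (evenUnit 1)⁻¹) * (evenUnit 0 * (evenUnit 1)⁻¹) = (-1, -1) := by decide +kernel

/-- The longest element as a word. -/
def longWord : List (Fin 8) := (List.replicate 15 [0, 1, 2, 3, 4, 5, 6, 7]).flatten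

theorem longWord_action : ∀ k : Fin 8, ∀ j : Fin 8,
    (H47.rootWordL H47.cartanE8 longWord (List.ofFn (H47.simpleRootVec k))).getD j.val 0 =
      - H47.simpleRootVec k j := by decide +kernel

theorem even_closure (R : Subgroup K8) (h : ∀ i j, (⟨sr i * sr j, sr_mul_sr_mem i j⟩ : K8) ∈ R) : R = ⊤ := by
  rw [eq_top_iff]
  intro k _
  obtain ⟨l, hl⟩ := CoxeterMatrix.E₈.toCoxeterSystem.wordProd_surjective k.1
  rw [CoxeterSystem.wordProd, CoxeterMatrix.toCoxeterSystem_simple] at hl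
  suffices key : ∀ l : List (Fin 8), ∀ hl : (l.map sr).prod ∈ K8, (⟨_, hl⟩ : K8) ∈ R by
    have hk : (l.map sr).prod ∈ K8 := by rw [show (l.map sr).prod = k.1 from hl]; exact k.2
    rw [show k = ⟨_, hk⟩ from Subtype.ext hl.symm]
    exact key l hk
  intro l
  induction l using List.twoStepInduction with
  | nil =>
    intro hl
    rw [show (⟨_, hl⟩ : K8) = 1 from Subtype.ext (by simp)]
    exact one_mem _
  | singleton i =>
    intro hl
    simp [sgn8_sr] at hl
  | cons_cons i j l ih _ =>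
    intro hl
    have e : ((i :: j :: l).map sr).prod = sr i * sr j * (l.map sr).prod := by simp [mul_assoc]
    have hl2 : (l.map sr).prod ∈ K8 := by
      rw [e] at hl
      exact (Subgroup.mul_mem_cancel_left _ (sr_mul_sr_mem i j)).mp hl
    rw [show (⟨_, hl⟩ : K8) = ⟨sr i * sr j, sr_mul_sr_mem i j⟩ * ⟨_, hl2⟩ from Subtype.ext e]
    exact mul_mem (h i j) (ih hl2)

/-- `PΩ₈⁺(2)` has a stem extension with kernel `2²`. -/
theorem exists_stem {F : Type*} [Field F] [Fintype F] [CharP F 2] (hF : Fintype.card F = 2) :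
    ∃ (Γ : Subgroup ((Mat8ˣ × Mat8ˣ) × Cfsg.POmega F (Cfsg.quadFormPlus 4 F)))
      (σ : Γ →* Cfsg.POmega F (Cfsg.quadFormPlus 4 F)),
      Cfsg.IsStemExtension σ ∧ Nonempty (σ.ker ≃* Multiplicative (ZMod 2 × ZMod 2)) := by
  haveI := finite_W8
  let q := QuotientGroup.mk' signs2
  have hrel : ∀ i j, (q (evenUnit i) * (q (evenUnit j))⁻¹) ^ mE8 i j = 1 := fun i j => by
    rw [← map_inv, ← map_mul, ← map_pow]
    refine (QuotientGroup.eq_one_iff _).mpr (mem_signs2.mpr ?_)
    rcases evenUnit_rel i j with h | h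
    · exact Or.inl h
    · exact Or.inr (Or.inl h)
  obtain ⟨φ, hφ⟩ := exists_evenHom (fun i => q (evenUnit i)) hrel
  let P : Fin 8 → Fin 8 → Cfsg.POmega F (Cfsg.quadFormPlus 4 F) :=
    fun i j => piHom F ⟨sr i * sr j, sr_mul_sr_mem i j⟩
  have hPmul : ∀ i j k, P i j * P j k = P i k := by
    intro i j k
    show piHom F _ * piHom F _ = piHom F _
    rw [← map_mul]
    congr 1
    refine Subtype.ext ?_
    show sr i * sr j * (sr j * sr k) = sr i * sr k
    rw [mul_assoc, ← mul_assoc (sr j), sr_mul_self, one_mul]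
  have hPinv : ∀ i j, (P i j)⁻¹ = P j i := fun i j =>
    inv_eq_of_mul_eq_one_right (by rw [hPmul]; exact mul_eq_left.mp (hPmul i i i))
  let gen : Fin 8 → (Mat8ˣ × Mat8ˣ) × Cfsg.POmega F (Cfsg.quadFormPlus 4 F) := fun i => (evenUnit i, P i 3)
  let Γ := Subgroup.closure (Set.range gen)
  let σ : Γ →* Cfsg.POmega F (Cfsg.quadFormPlus 4 F) := (MonoidHom.snd _ _).comp Γ.subtype
  have hdiff : ∀ i j, (evenUnit i * (evenUnit j)⁻¹, P i j) ∈ Γ := fun i j => by
    have h := mul_mem (Subgroup.subset_closure ⟨i, rfl⟩ : gen i ∈ Γ)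
      (inv_mem (Subgroup.subset_closure ⟨j, rfl⟩ : gen j ∈ Γ))
    simp only [gen, Prod.inv_mk, Prod.mk_mul_mk, hPinv, hPmul] at h
    exact h
  have hsurj : Function.Surjective σ := by
    intro g
    obtain ⟨k, rfl⟩ := piHom_surjective hF g
    have hR : σ.range.comap (piHom F) = ⊤ := even_closure _ fun i j => ⟨⟨_, hdiff i j⟩, rfl⟩
    exact hR.ge (Subgroup.mem_top k)
  -- every element lies over one of the even subgroup
  let Φ : K8 →* ((Mat8ˣ × Mat8ˣ) ⧸ signs2) × Cfsg.POmega F (Cfsg.quadFormPlus 4 F) := φ.prod (piHom F)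
  have hover : ∀ x ∈ Γ, ∃ k, Φ k = (q x.1, x.2) := by
    intro x hx
    have hle : Γ ≤ Φ.range.comap (q.prodMap (MonoidHom.id _)) := by
      rw [Subgroup.closure_le]
      rintro _ ⟨i, rfl⟩
      refine ⟨⟨sr i * sr 3, sr_mul_sr_mem i 3⟩, Prod.ext ?_ rfl⟩
      show φ _ = q (evenUnit i)
      rw [hφ, evenUnit_base, Prod.mk_one_one, map_one, inv_one, mul_one]
    exact hle hx
  -- the longest element
  have hw0mem : (longWord.map sr).prod ∈ K8 := by
    rw [MonoidHom.mem_ker, map_list_prod, List.map_map,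
      show (sgn8 ∘ sr) = fun _ => (-1 : ℤˣ) from funext sgn8_sr, List.map_const', List.prod_replicate]
    rw [show longWord.length = 2 * 60 by simp [longWord], pow_mul, pow_two, Int.units_mul_self, one_pow]
  let w0 : K8 := ⟨_, hw0mem⟩
  have hw0refl : ∀ x, H47.reflRep H47.cartanFor_E8 w0.1 x = -x := by
    intro x
    have key : ∀ l : List (Fin 8), (l.map sr).prod = (l.map CoxeterMatrix.E₈.simple).prod := fun l => rfl
    have hw : w0.1 = (longWord.map sr).prod := rfl
    rw [hw, key, H70.reflRep_list]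
    have e : (longWord.map (H47.rootReflLin H47.cartanE8)).prod = -1 := by
      refine H70.eq_of_simpleRootVec fun k => ?_
      funext j
      have h := longWord_action k j
      rw [H47.rootWordL_ofFn] at h
      exact (congrFun (H47.getD_ofFn _) j).symm.trans h
    rw [e]; rfl
  have hw0one : w0 ≠ 1 := by
    intro h
    have e := congrFun (hw0refl (H47.simpleRootVec 0)) 0
    rw [h, OneMemClass.coe_one, map_one] at e
    exact absurd e (by decide)
  have hw0pi : evenHom F w0 = 1 := by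
    refine Subtype.ext (ext_red fun x => ?_)
    rw [evenHom_coe, red_orthHom, hw0refl]
    simp only [OneMemClass.coe_one, Units.val_one, Matrix.one_mulVec]
    rw [red, red]
    refine Finset.sum_congr rfl fun j _ => ?_
    rw [Pi.neg_apply, Int.cast_neg, CharTwo.neg_eq]
  let cox : K8 := ⟨sr 0 * sr 1, sr_mul_sr_mem 0 1⟩ * ⟨sr 2 * sr 3, sr_mul_sr_mem 2 3⟩ *
    ⟨sr 4 * sr 5, sr_mul_sr_mem 4 5⟩ * ⟨sr 6 * sr 7, sr_mul_sr_mem 6 7⟩
  have hw0eq : w0 = cox ^ 15 := by
    refine Subtype.ext ?_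
    show (longWord.map sr).prod = (cox : W8) ^ 15
    rw [longWord, List.map_flatten, List.prod_flatten, List.map_replicate, List.map_replicate, List.prod_replicate]
    congr 1
  have hφcox : φ cox = q coxUnit := by
    simp only [cox, coxUnit, map_mul, hφ, map_inv]
  have hφw0 : φ w0 = 1 := by
    rw [hw0eq, map_pow, hφcox, ← map_pow, coxUnit_pow]
    exact (QuotientGroup.eq_one_iff _).mpr (mem_signs2.mpr (Or.inr (Or.inr (Or.inl rfl))))
  have hker : ∀ x ∈ Γ, x.2 = 1 → x.1 ∈ signs2 := by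
    intro x hx h1
    obtain ⟨k, hk⟩ := hover x hx
    have hk2 : piHom F k = 1 := (congrArg Prod.snd hk).trans h1
    have hk1 : φ k = 1 := by
      rcases evenHom_ker_two (piHom_eq_one hF hk2) hw0pi with h | h | h
      · rw [h, map_one]
      · exact absurd h hw0one
      · rw [h, hφw0]
    exact (QuotientGroup.eq_one_iff _).mp ((congrArg Prod.fst hk).symm.trans hk1)
  -- the two elements
  have hzΓ : (((-1, -1), 1) : (Mat8ˣ × Mat8ˣ) × Cfsg.POmega F (Cfsg.quadFormPlus 4 F)) ∈ Γ := by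
    have h := mul_mem (hdiff 0 1) (hdiff 0 1)
    rw [Prod.mk_mul_mk, sq_unit] at h
    have e : P 0 1 * P 0 1 = 1 := by
      show piHom F _ * piHom F _ = 1
      rw [← map_mul]
      convert map_one (piHom F)
      refine Subtype.ext ?_
      show sr 0 * sr 1 * (sr 0 * sr 1) = 1
      rw [← pow_two, show (2 : ℕ) = mE8 0 1 by decide, sr_rel]
    rwa [e] at h
  have hwΓ : (((-1, 1), 1) : (Mat8ˣ × Mat8ˣ) × Cfsg.POmega F (Cfsg.quadFormPlus 4 F)) ∈ Γ := by
    have h := pow_mem (mul_mem (mul_mem (mul_mem (hdiff 0 1) (hdiff 2 3)) (hdiff 4 5)) (hdiff 6 7)) 15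
    simp only [Prod.mk_mul_mk] at h
    rw [Prod.pow_mk] at h
    have e1 : (evenUnit 0 * (evenUnit 1)⁻¹ * (evenUnit 2 * (evenUnit 3)⁻¹) * (evenUnit 4 * (evenUnit 5)⁻¹) *
        (evenUnit 6 * (evenUnit 7)⁻¹)) ^ 15 = (-1, 1) := coxUnit_pow
    have e2 : (P 0 1 * P 2 3 * P 4 5 * P 6 7) ^ 15 = 1 := by
      show (piHom F _ * piHom F _ * piHom F _ * piHom F _) ^ 15 = 1
      rw [← map_mul, ← map_mul, ← map_mul, ← map_pow]
      show piHom F (cox ^ 15) = 1
      rw [← hw0eq]
      show QuotientGroup.mk' _ (evenHom F w0) = 1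
      rw [hw0pi, map_one]
    rwa [e1, e2] at h
  -- perfect
  have hedge : ∀ e ∈ edgeList, (⟨_, hdiff e.1 e.2.1⟩ : Γ) ∈ commutator Γ := by
    intro e he
    have h : (⟨_, hdiff e.1 e.2.1⟩ : Γ) = ⁅(⟨_, hdiff e.2.1 e.2.2⟩ : Γ), ⟨_, hdiff e.1 e.2.1⟩⁆ := by
      refine Subtype.ext (Prod.ext ?_ ?_)
      · show _ = ⁅evenUnit e.2.1 * (evenUnit e.2.2)⁻¹, evenUnit e.1 * (evenUnit e.2.1)⁻¹⁆
        rw [edge_matrices e he]
      · show P e.1 e.2.1 = ⁅P e.2.1 e.2.2, P e.1 e.2.1⁆
        show piHom F _ = ⁅piHom F _, piHom F _⁆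
        rw [← map_commutatorElement]
        refine congrArg (piHom F) (Subtype.ext ?_)
        have hw := H70.prod_eq_of_sameAction H47.cartanFor_E8 _ _ (edge_words e he)
        simp only [List.map_cons, List.map_nil, List.prod_cons, List.prod_nil, mul_one] at hw
        show sr e.1 * sr e.2.1 = sr e.2.1 * sr e.2.2 * (sr e.1 * sr e.2.1) * (sr e.2.1 * sr e.2.2)⁻¹ *
          (sr e.1 * sr e.2.1)⁻¹
        rw [mul_inv_rev, mul_inv_rev, sr_inv, sr_inv, sr_inv]
        refine hw.symm.trans ?_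
        simp only [sr, mul_assoc]
    rw [h]
    exact Subgroup.commutator_mem_commutator (Subgroup.mem_top _) (Subgroup.mem_top _)
  have hperf : commutator Γ = ⊤ := by
    have hbase : ∀ i, (⟨gen i, Subgroup.subset_closure ⟨i, rfl⟩⟩ : Γ) = ⟨_, hdiff i 3⟩ := fun i =>
      Subtype.ext (Prod.ext (by
        show evenUnit i = evenUnit i * (evenUnit 3)⁻¹
        rw [evenUnit_base, Prod.mk_one_one, inv_one, mul_one]) rfl)
    have hstep : ∀ i j k, (⟨_, hdiff i j⟩ : Γ) ∈ commutator Γ → (⟨_, hdiff j k⟩ : Γ) ∈ commutator Γ →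
        (⟨_, hdiff i k⟩ : Γ) ∈ commutator Γ := by
      intro i j k h1 h2
      have e : (⟨_, hdiff i k⟩ : Γ) = ⟨_, hdiff i j⟩ * ⟨_, hdiff j k⟩ :=
        Subtype.ext (Prod.ext (by
          show evenUnit i * (evenUnit k)⁻¹ = evenUnit i * (evenUnit j)⁻¹ * (evenUnit j * (evenUnit k)⁻¹)
          group) (hPmul i j k).symm)
      rw [e]; exact mul_mem h1 h2
    have e02 := hedge (0, 2, 1) (by decide)
    have e23 := hedge (2, 3, 5) (by decide)
    have e13 := hedge (1, 3, 0) (by decide)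
    have e43 := hedge (4, 3, 0) (by decide)
    have e54 := hedge (5, 4, 0) (by decide)
    have e65 := hedge (6, 5, 0) (by decide)
    have e76 := hedge (7, 6, 0) (by decide)
    have e53 := hstep 5 4 3 e54 e43
    have e63 := hstep 6 5 3 e65 e53
    have e73 := hstep 7 6 3 e76 e63
    have e03 := hstep 0 2 3 e02 e23
    have e33 : (⟨_, hdiff 3 3⟩ : Γ) ∈ commutator Γ := by
      have e : (⟨_, hdiff 3 3⟩ : Γ) = 1 := Subtype.ext (Prod.ext (mul_inv_cancel _)
        (mul_eq_left.mp (hPmul 3 3 3)))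
      rw [e]; exact one_mem _
    refine eq_top_iff.mpr ?_
    have htop : (⊤ : Subgroup Γ) = Subgroup.closure (((↑) : Γ → _) ⁻¹' Set.range gen) :=
      (Subgroup.closure_closure_coe_preimage (k := Set.range gen)).symm
    rw [htop, Subgroup.closure_le]
    rintro ⟨_, hxm⟩ ⟨i, rfl⟩
    show (⟨gen i, hxm⟩ : Γ) ∈ commutator Γ
    rw [show (⟨gen i, hxm⟩ : Γ) = ⟨_, hdiff i 3⟩ from (hbase i)]
    fin_cases i
    · exact e03
    · exact e13
    · exact e23
    · exact e33
    · exact e43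
    · exact e53
    · exact e63
    · exact e73
  -- the kernel
  let f : σ.ker → Multiplicative (ZMod 2 × ZMod 2) := fun x =>
    Multiplicative.ofAdd (if x.1.1.1.1 = 1 then 0 else 1, if x.1.1.1.2 = 1 then 0 else 1)
  have hne : (-1 : Mat8ˣ) ≠ 1 := by decide +kernel
  have hmul : ∀ x y : σ.ker, f (x * y) = f x * f y := by
    intro x y
    rcases mem_signs2.mp (hker _ x.1.2 x.2) with hx | hx | hx | hx <;>
      rcases mem_signs2.mp (hker _ y.1.2 y.2) with hy | hy | hy | hy <;>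
      · simp only [f, Subgroup.coe_mul, Prod.fst_mul, Prod.snd_mul, hx, hy, one_mul, mul_one, neg_mul_neg,
          if_neg hne, if_true, ← ofAdd_add, Prod.mk_add_mk]
        decide
  let fh : σ.ker →* Multiplicative (ZMod 2 × ZMod 2) := MonoidHom.mk' f hmul
  have hinj : Function.Injective fh := by
    intro x y h
    have h' : f x = f y := h
    have e : x.1.1.1 = y.1.1.1 := by
      rcases mem_signs2.mp (hker _ x.1.2 x.2) with hx | hx | hx | hx <;>
        rcases mem_signs2.mp (hker _ y.1.2 y.2) with hy | hy | hy | hy <;>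
        · simp only [f, hx, hy, if_neg hne, if_true, EmbeddingLike.apply_eq_iff_eq] at h'
          first
            | exact absurd h' (by decide)
            | rw [hx, hy]
    exact Subtype.ext (Subtype.ext (Prod.ext e (x.2.trans y.2.symm)))
  let z : σ.ker := ⟨⟨_, hzΓ⟩, rfl⟩
  let w : σ.ker := ⟨⟨_, hwΓ⟩, rfl⟩
  have hfz : fh z = Multiplicative.ofAdd (1, 1) := by
    show f z = _
    simp [f, z, hne]
  have hfw : fh w = Multiplicative.ofAdd (1, 0) := by
    show f w = _
    simp [f, w, hne]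
  have hcases : ∀ g : Multiplicative (ZMod 2 × ZMod 2), g = 1 ∨ g = Multiplicative.ofAdd (1, 1) ∨
      g = Multiplicative.ofAdd (1, 0) ∨ g = Multiplicative.ofAdd (1, 1) * Multiplicative.ofAdd (1, 0) := by decide
  have hsur : Function.Surjective fh := by
    intro g
    rcases hcases g with rfl | rfl | rfl | rfl
    · exact ⟨1, map_one _⟩
    · exact ⟨z, hfz⟩
    · exact ⟨w, hfw⟩
    · exact ⟨z * w, by rw [map_mul, hfz, hfw]⟩
  refine ⟨Γ, σ, ⟨hsurj, ?_, ?_⟩, ⟨MulEquiv.ofBijective fh ⟨hinj, hsur⟩⟩⟩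
  · intro x hx
    refine Subgroup.mem_center_iff.mpr fun g => Subtype.ext (Prod.ext ?_ ?_)
    · exact Subgroup.mem_center_iff.mp (signs2_le_center (hker _ x.2 hx)) g.1.1
    · show g.1.2 * x.1.2 = x.1.2 * g.1.2
      rw [show x.1.2 = 1 from hx, mul_one, one_mul]
  · rw [hperf]; exact le_top

end Cfsg.Agent.H14.Omega8
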